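/-
Peterfalvi, section 1: bridge to the frozen vocabulary (functions on subtypes).
-/
import Mathlib
import Cfsg.Agent.Lib.PF.Sec1

set_option autoImplicit false
set_option linter.unusedSectionVars false

namespace CfsgLib.PF.Frozen1

open Cfsg CfsgLib.BG

variable {G : Type*} [Group G] [Finite G] {H T : Subgroup G}

theorem extendByZero_inj {θ φ : H → ℂ} : extendByZero H θ = extendByZero H φ ↔ θ = φ :=
  ⟨fun e => by rw [← res_extendByZero H θ, e, res_extendByZero], fun e => by rw [e]⟩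

theorem cfJ_extendByZero [hN : H.Normal] (θ : H → ℂ) (g : G) : cfJ g (extendByZero H θ) =
    extendByZero H fun h : H => θ ⟨g * h * g⁻¹, hN.conj_mem h h.2 g⟩ := by
  ext x
  rw [cfJ_apply]
  by_cases hx : x ∈ H
  · exact (extendByZero_coe' H θ ⟨_, hN.conj_mem x hx g⟩).trans
      (extendByZero_coe' H (fun h : H => θ ⟨g * h * g⁻¹, hN.conj_mem h h.2 g⟩) ⟨x, hx⟩).symm
  · rw [extendByZero_not_mem _ _ _ hx, extendByZero_not_mem]
    intro e
    apply hx
    simpa [mul_assoc] using hN.conj_mem _ e g⁻¹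

theorem mem_inertia_top [hN : H.Normal] (θ : H → ℂ) (g : G) : g ∈ inertia ⊤ (extendByZero H θ) ↔
    ∀ h : H, θ ⟨g * h * g⁻¹, hN.conj_mem h h.2 g⟩ = θ h := by
  rw [mem_inertia, cfJ_extendByZero, extendByZero_inj, and_iff_right (Subgroup.mem_top g),
    funext_iff]

theorem inertia_top_eq [hN : H.Normal] {θ : H → ℂ}
    (hT : ∀ g : G, g ∈ T ↔ ∀ h : H, θ ⟨g * h * g⁻¹, hN.conj_mem h h.2 g⟩ = θ h) :
    inertia ⊤ (extendByZero H θ) = T := by
  ext g; rw [mem_inertia_top, hT]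

theorem mem_cfclass_top [hN : H.Normal] (θ φ : H → ℂ) :
    extendByZero H φ ∈ cfclass ⊤ (extendByZero H θ) ↔
      ∃ g : G, φ = fun h : H => θ ⟨g * h * g⁻¹, hN.conj_mem h h.2 g⟩ := by
  simp only [mem_cfclass, Subgroup.mem_top, true_and, cfJ_extendByZero, extendByZero_inj]

end CfsgLib.PF.Frozen1
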