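/-
Peterfalvi, section 3: bridge to the frozen vocabulary (`IsCyclicTIFamily`, families indexed by the
linear characters of `W = W₁ ⊔ W₂`).
-/
import Mathlib
import Cfsg.Agent.Lib.PF.Sec3
import Cfsg.Agent.Lib.PF.S1_Lin

set_option autoImplicit false
set_option linter.unusedSectionVars false

namespace CfsgLib.PF.Frozen3

open scoped ComplexConjugate
open Cfsg CfsgLib.BG

variable {G : Type*} [Group G] [Finite G] {W₁ W₂ : Subgroup G}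

/-- linear characters of `W` trivial on `K` -/
def annih (W K : Subgroup G) : Subgroup (Dual W) where
  carrier := {φ | ∀ w : W, (w : G) ∈ K → φ w = 1}
  one_mem' := fun _ _ => rfl
  mul_mem' := fun {a b} ha hb w hw => by rw [MonoidHom.mul_apply, ha w hw, hb w hw, one_mul]
  inv_mem' := fun {a} ha w hw => by rw [MonoidHom.inv_apply, ha w hw, inv_one]

theorem dual_mul_one {W : Subgroup G} (φ : Dual W) : φ * 1 = φ := by ext; simp

theorem dual_one_mul {W : Subgroup G} (φ : Dual W) : 1 * φ = φ := by ext; simp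

theorem eq_one_of_annih {φ : Dual (W₁ ⊔ W₂)} (h₁ : φ ∈ annih (W₁ ⊔ W₂) W₁)
    (h₂ : φ ∈ annih (W₁ ⊔ W₂) W₂) : φ = 1 := by
  have : W₁ ⊔ W₂ ≤ φ.ker.map (W₁ ⊔ W₂).subtype :=
    sup_le (fun a ha => ⟨⟨a, Subgroup.mem_sup_left ha⟩, h₁ _ ha, rfl⟩)
      fun a ha => ⟨⟨a, Subgroup.mem_sup_right ha⟩, h₂ _ ha, rfl⟩
  ext1 w
  obtain ⟨w', hw', e⟩ := this w.2
  rw [← (Subtype.ext e : w' = w)]
  exact hw'

theorem mul_eq_mul_iff {φ φ' ψ ψ' : Dual (W₁ ⊔ W₂)} (hφ : φ ∈ annih (W₁ ⊔ W₂) W₂)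
    (hφ' : φ' ∈ annih (W₁ ⊔ W₂) W₂) (hψ : ψ ∈ annih (W₁ ⊔ W₂) W₁) (hψ' : ψ' ∈ annih (W₁ ⊔ W₂) W₁) :
    φ * ψ = φ' * ψ' ↔ φ = φ' ∧ ψ = ψ' := by
  refine ⟨fun e => ?_, fun e => by rw [e.1, e.2]⟩
  have h1 : φ'⁻¹ * φ = 1 := by
    refine eq_one_of_annih (fun w hw => ?_) (mul_mem (inv_mem hφ') hφ)
    have := DFunLike.congr_fun e w
    simp only [MonoidHom.mul_apply, hψ w hw, hψ' w hw, mul_one] at this
    simp [this]
  have h2 : φ = φ' := (inv_mul_eq_one.mp h1).symm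
  subst h2
  exact ⟨rfl, mul_left_cancel e⟩

open Classical in
theorem dot_dual_mul {φ φ' ψ ψ' : Dual (W₁ ⊔ W₂)} (hφ : φ ∈ annih (W₁ ⊔ W₂) W₂)
    (hφ' : φ' ∈ annih (W₁ ⊔ W₂) W₂) (hψ : ψ ∈ annih (W₁ ⊔ W₂) W₁) (hψ' : ψ' ∈ annih (W₁ ⊔ W₂) W₁) :
    dot (W₁ ⊔ W₂) (dualChar (φ * ψ)) (dualChar (φ' * ψ')) = if φ = φ' ∧ ψ = ψ' then 1 else 0 := by
  rw [(isIrr_dualChar _).dot_eq (isIrr_dualChar _)]
  congr 1
  rw [dualChar_injective.eq_iff, mul_eq_mul_iff hφ hφ' hψ hψ']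

/-- `(1 - φ) (1 - ψ)`, extended by zero -/
noncomputable def alphaF {W : Subgroup G} (φ ψ : Dual W) : G → ℂ :=
  extendByZero W fun w => 1 - (φ w : ℂ) - (ψ w : ℂ) + (φ w : ℂ) * (ψ w : ℂ)

theorem alphaF_apply {W : Subgroup G} (φ ψ : Dual W) (w : W) :
    alphaF φ ψ w = (1 - (φ w : ℂ)) * (1 - (ψ w : ℂ)) := by
  rw [alphaF, extendByZero_coe']; ring

theorem alphaF_eq {W : Subgroup G} (φ ψ : Dual W) : alphaF φ ψ =
    dualChar (1 * 1 : Dual W) - dualChar (φ * 1) - dualChar (1 * ψ) + dualChar (φ * ψ) :=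
  CF_ext (extendByZero_not_mem W _) (fun x hx => by simp [dualChar_of_not_mem _ hx]) fun x hx => by
    have := alphaF_apply φ ψ ⟨x, hx⟩
    simp only at this
    simp only [this, Pi.add_apply, Pi.sub_apply, dualChar_apply_of_mem _ hx, MonoidHom.mul_apply,
      MonoidHom.one_apply, Units.val_mul, Units.val_one]
    ring

theorem alphaF_mem_CF {W : Subgroup G} (φ ψ : Dual W) : alphaF φ ψ ∈ CF W := by
  rw [alphaF_eq]
  exact add_mem (sub_mem (sub_mem (isIrr_dualChar _).mem_CF (isIrr_dualChar _).mem_CF)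
    (isIrr_dualChar _).mem_CF) (isIrr_dualChar _).mem_CF

theorem alphaF_on {φ ψ : Dual (W₁ ⊔ W₂)} (hφ : φ ∈ annih (W₁ ⊔ W₂) W₂)
    (hψ : ψ ∈ annih (W₁ ⊔ W₂) W₁) : alphaF φ ψ ∈ CFon (W₁ ⊔ W₂) (cycV W₁ W₂) := by
  refine mem_CFon_of (alphaF_mem_CF φ ψ) fun x hx hxV => ?_
  rw [mem_cycV, and_iff_right hx, not_and_or, not_not, not_not] at hxV
  refine (alphaF_apply φ ψ ⟨x, hx⟩).trans ?_
  rcases hxV with e | e
  · simp [hψ ⟨x, hx⟩ e]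
  · simp [hφ ⟨x, hx⟩ e]

open Classical in
theorem dot_alphaF_dual {φ φ' ψ ψ' : Dual (W₁ ⊔ W₂)} (hφ : φ ∈ annih (W₁ ⊔ W₂) W₂)
    (hφ' : φ' ∈ annih (W₁ ⊔ W₂) W₂) (hψ : ψ ∈ annih (W₁ ⊔ W₂) W₁) (hψ' : ψ' ∈ annih (W₁ ⊔ W₂) W₁) :
    dot (W₁ ⊔ W₂) (alphaF φ ψ) (dualChar (φ' * ψ')) =
      ((if 1 = φ' then 1 else 0) - if φ = φ' then 1 else 0) *
        ((if 1 = ψ' then 1 else 0) - if ψ = ψ' then 1 else 0) := by
  rw [alphaF_eq, dot_add_left, dot_sub_left, dot_sub_left,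
    dot_dual_mul (one_mem _) hφ' (one_mem _) hψ', dot_dual_mul hφ hφ' (one_mem _) hψ',
    dot_dual_mul (one_mem _) hφ' hψ hψ', dot_dual_mul hφ hφ' hψ hψ']
  simp only [ite_and]
  split_ifs <;> norm_num

open Classical in
theorem sum_annih {W K : Subgroup G} (hc : IsMulCommutative W) (hK : K ≤ W) [Fintype (annih W K)]
    (z : W) : ∑ φ : annih W K, ((φ : Dual W) z : ℂ) =
      if (z : G) ∈ K then (Fintype.card (annih W K) : ℂ) else 0 := by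
  split_ifs with hz
  · rw [Finset.sum_congr rfl (g := fun _ => 1) fun φ _ => by rw [φ.2 z hz, Units.val_one]]
    simp
  have hN : K ⊲ W := ⟨hK, fun g hg => Subgroup.mem_normalizer_iff.mpr fun x => by
    by_cases hx : x ∈ W
    · have : g * x = x * g := congrArg Subtype.val (hc.is_comm.comm (⟨g, hg⟩ : W) ⟨x, hx⟩)
      rw [this, mul_inv_cancel_right]
    · refine ⟨fun e => absurd (hK e) hx, fun e => absurd ?_ hx⟩
      simpa [mul_assoc] using W.mul_mem (W.mul_mem (W.inv_mem hg) (hK e)) hg⟩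
  have := mt (mem_of_forall_irr_inKer hN z.2) hz
  push Not at this
  obtain ⟨χ, hχ, hk, hne⟩ := this
  obtain ⟨φ, rfl⟩ := (hχ.isLin_of_comm hc).exists_dual
  have h1 : dualChar φ 1 = 1 := (isLin_dualChar φ).one
  have hφ : φ ∈ annih W K := fun w hw => Units.ext (by
    rw [← dualChar_apply, hk w hw, h1, Units.val_one])
  let f : annih W K →* ℂ :=
    { toFun := fun i => ((i : Dual W) z : ℂ), map_one' := by simp, map_mul' := fun a b => by simp }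
  refine sum_hom_units_eq_zero f fun e => hne ?_
  rw [h1, dualChar_apply]
  exact DFunLike.congr_fun e ⟨φ, hφ⟩

theorem eq_zero_of_dot_alphaF (hW : IsSelfNormalizingCyclic W₁ W₂) {δ : G → ℂ}
    (h0 : ∀ φ ∈ annih (W₁ ⊔ W₂) W₂, ∀ ψ ∈ annih (W₁ ⊔ W₂) W₁, dot (W₁ ⊔ W₂) δ (alphaF φ ψ) = 0)
    (w : ↥(W₁ ⊔ W₂)) (h₁ : (w : G) ∉ W₁) (h₂ : (w : G) ∉ W₂) : δ w = 0 := by
  classical
  have hc := hW.2.2.2.2.1.isMulCommutative
  have := Fintype.ofFinite (annih (W₁ ⊔ W₂) W₂)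
  have := Fintype.ofFinite (annih (W₁ ⊔ W₂) W₁)
  have := Fintype.ofFinite ↥(W₁ ⊔ W₂)
  set f : G → ℂ := ∑ φ : annih (W₁ ⊔ W₂) W₂, ∑ ψ : annih (W₁ ⊔ W₂) W₁,
    (((φ : Dual _) w⁻¹ : ℂ) * ((ψ : Dual _) w⁻¹ : ℂ)) • alphaF (φ : Dual (W₁ ⊔ W₂)) ψ with hf
  have h1 : dot (W₁ ⊔ W₂) δ f = 0 := by
    simp only [hf, dot_sum_right, dot_smul_right, h0 _ (Subtype.prop _) _ (Subtype.prop _), mul_zero,
      Finset.sum_const_zero]
  have h2 : ∀ y : ↥(W₁ ⊔ W₂), f y = if y = w then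
      (Fintype.card (annih (W₁ ⊔ W₂) W₂) * Fintype.card (annih (W₁ ⊔ W₂) W₁) : ℂ) else 0 := by
    intro y
    have : f y = (∑ φ : annih (W₁ ⊔ W₂) W₂, ((φ : Dual _) w⁻¹ : ℂ) -
        ∑ φ : annih (W₁ ⊔ W₂) W₂, ((φ : Dual _) (w⁻¹ * y) : ℂ)) *
        (∑ ψ : annih (W₁ ⊔ W₂) W₁, ((ψ : Dual _) w⁻¹ : ℂ) -
        ∑ ψ : annih (W₁ ⊔ W₂) W₁, ((ψ : Dual _) (w⁻¹ * y) : ℂ)) := by
      simp only [hf, Finset.sum_apply, Pi.smul_apply, smul_eq_mul, alphaF_apply,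
        ← Finset.sum_sub_distrib, Finset.sum_mul_sum, map_mul, Units.val_mul]
      exact Finset.sum_congr rfl fun φ _ => Finset.sum_congr rfl fun ψ _ => by ring
    rw [this]
    simp only [sum_annih hc le_sup_left, sum_annih hc le_sup_right, Subgroup.coe_inv, inv_mem_iff,
      h₁, h₂, if_false, zero_sub, neg_mul_neg]
    by_cases e : y = w
    · simp [e]
    · rw [if_neg e]
      by_cases e1 : ((w⁻¹ * y : ↥(W₁ ⊔ W₂)) : G) ∈ W₁
      · rw [if_neg, zero_mul]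
        intro e2
        have : ((w⁻¹ * y : ↥(W₁ ⊔ W₂)) : G) ∈ W₁ ⊓ W₂ := ⟨e1, e2⟩
        rw [hW.2.2.1, Subgroup.mem_bot, OneMemClass.coe_eq_one, inv_mul_eq_one] at this
        exact e this.symm
      · rw [if_neg e1, mul_zero]
  rw [dot_def, sum_els_subgroup, Finset.sum_eq_single w (fun y _ hy => by simp [h2, hy]) (by simp),
    h2, if_pos rfl] at h1
  simpa [cardC_ne_zero] using h1

theorem dot_alphaF_fam [Fintype G] {χ : Dual (W₁ ⊔ W₂) → G → ℂ} (hχ : IsCyclicTIFamily W₁ W₂ χ)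
    {θ : G → ℂ} (hθ : IsClassFunction G θ) {φ ψ : Dual (W₁ ⊔ W₂)} (hφ : φ ∈ annih (W₁ ⊔ W₂) W₂)
    (hψ : ψ ∈ annih (W₁ ⊔ W₂) W₁) : dot (W₁ ⊔ W₂) θ (alphaF φ ψ) = classInner θ (χ (1 * 1)) -
      classInner θ (χ (φ * 1)) - classInner θ (χ (1 * ψ)) + classInner θ (χ (φ * ψ)) := by
  by_cases e1 : φ = 1
  · rw [alphaF_eq, e1]; simp
  by_cases e2 : ψ = 1
  · rw [alphaF_eq, e2]; simp
  rw [← dot_Ind_right le_top _ (mem_CF_top.mpr hθ), alphaF, Ind_top_extendByZero,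
    hχ.induced_eq φ ψ e1 e2 hφ hψ, dual_mul_one, dual_mul_one, dual_one_mul, hχ.map_one]
  simp only [← dot_top, ← dot_sub_right, ← dot_add_right]
  rfl

/-- restriction of a linear character of `W₁ ⊔ W₂` to `W₁` -/
def res₁ (ω : Dual (W₁ ⊔ W₂)) : Dual W₁ := ω.comp (Subgroup.inclusion le_sup_left)

/-- restriction of a linear character of `W₁ ⊔ W₂` to `W₂` -/
def res₂ (ω : Dual (W₁ ⊔ W₂)) : Dual W₂ := ω.comp (Subgroup.inclusion le_sup_right)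

theorem omega_res (h : CycPair W₁ W₂) (ω : Dual (W₁ ⊔ W₂)) :
    omega W₁ W₂ (res₁ ω) (res₂ ω) = dualChar ω :=
  h.ext_W (fun _ => omega_of_not_mem _ _) (fun _ => dualChar_of_not_mem _) fun a b => by
    rw [h.omega_mul_apply, dualChar_apply_of_mem _ (Subgroup.mul_mem_sup a.2 b.2), res₁, res₂,
      MonoidHom.comp_apply, MonoidHom.comp_apply, ← Units.val_mul, ← map_mul]
    rfl

theorem res_inj (h : CycPair W₁ W₂) {ω ω' : Dual (W₁ ⊔ W₂)} :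
    res₁ ω = res₁ ω' ∧ res₂ ω = res₂ ω' ↔ ω = ω' :=
  ⟨fun e => dualChar_injective (by rw [← omega_res h, ← omega_res h, e.1, e.2]),
    fun e => by rw [e]; exact ⟨rfl, rfl⟩⟩

theorem res_omegaHom (h : CycPair W₁ W₂) (i : Dual W₁) (j : Dual W₂) :
    res₁ (h.omegaHom i j) = i ∧ res₂ (h.omegaHom i j) = j := by
  refine h.omega_inj ?_
  rw [omega_res h]
  exact CF_ext (fun _ => dualChar_of_not_mem _) (fun _ => omega_of_not_mem _ _) fun x hx => by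
    rw [dualChar_apply_of_mem _ hx, h.omegaHom_apply]

theorem res₂_eq_iff {ω ω' : Dual (W₁ ⊔ W₂)} :
    res₂ ω = res₂ ω' ↔ ∀ w : ↥(W₁ ⊔ W₂), (w : G) ∈ W₂ → (ω * ω'⁻¹) w = 1 := by
  simp only [MonoidHom.mul_apply, MonoidHom.inv_apply, mul_inv_eq_one]
  exact ⟨fun e w hw => DFunLike.congr_fun e ⟨w, hw⟩, fun e => MonoidHom.ext fun w => e _ w.2⟩

theorem res₁_eq_iff {ω ω' : Dual (W₁ ⊔ W₂)} :
    res₁ ω = res₁ ω' ↔ ∀ w : ↥(W₁ ⊔ W₂), (w : G) ∈ W₁ → (ω * ω'⁻¹) w = 1 := by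
  simp only [MonoidHom.mul_apply, MonoidHom.inv_apply, mul_inv_eq_one]
  exact ⟨fun e w hw => DFunLike.congr_fun e ⟨w, hw⟩, fun e => MonoidHom.ext fun w => e _ w.2⟩

theorem fam_eq_eta [Fintype G] (h : CycTI W₁ W₂) {χ : Dual (W₁ ⊔ W₂) → G → ℂ}
    (hχ : IsCyclicTIFamily W₁ W₂ χ) (ω : Dual (W₁ ⊔ W₂)) : χ ω = eta W₁ W₂ (res₁ ω) (res₂ ω) :=
  h.eq_eta (isDirr_top.mpr (hχ.irr_or_neg ω)) fun x hx => by
    obtain ⟨h0, h1, h2⟩ := mem_cycV.mp hx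
    rw [omega_res h.pair, dualChar_apply_of_mem _ h0]
    exact hχ.eq_on ω ⟨x, h0⟩ h1 h2

theorem isCyclicTIFamily_eta [Fintype G] (h : CycTI W₁ W₂) :
    IsCyclicTIFamily W₁ W₂ fun ω => eta W₁ W₂ (res₁ ω) (res₂ ω) := by
  classical
  refine ⟨fun ω => isDirr_top.mp (h.eta_dirr _ _), fun ω ω' => ?_, ?_, fun ω w h1 h2 => ?_,
    fun φ ψ _ _ hφ hψ => ?_⟩
  · rw [← dot_top, h.dot_eta]
    congr 1
    exact propext (res_inj h.pair)
  · exact h.eta_one_one.trans cf1_top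
  · rw [h.eta_id _ _ (mem_cycV.mpr ⟨w.2, h1, h2⟩), omega_res h.pair, dualChar_apply]
  · have e1 : res₂ φ = 1 := MonoidHom.ext fun w => hφ _ w.2
    have e2 : res₁ ψ = 1 := MonoidHom.ext fun w => hψ _ w.2
    have e3 : res₁ (φ * ψ) = res₁ φ := MonoidHom.ext fun w => by
      simp only [res₁, MonoidHom.comp_apply, MonoidHom.mul_apply]
      rw [hψ _ w.2, mul_one]
    have e4 : res₂ (φ * ψ) = res₂ ψ := MonoidHom.ext fun w => by
      simp only [res₂, MonoidHom.comp_apply, MonoidHom.mul_apply]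
      rw [hφ _ w.2, one_mul]
    have := h.Ind_cycAlpha (res₁ φ) (res₂ ψ)
    rw [cf1_top] at this
    simp only [e1, e2, e3, e4]
    refine Eq.trans ?_ this
    rw [Ind_top_eq_indFun]
    congr 1
    ext w
    rw [cycAlpha, Pi.add_apply, Pi.sub_apply, Pi.sub_apply, cf1_apply_of_mem w.2]
    nth_rewrite 1 [← e1, ← e2]
    rw [← e3, ← e4]
    nth_rewrite 1 [e3]
    nth_rewrite 1 [e4]
    simp only [omega_res h.pair, dualChar_apply, MonoidHom.mul_apply, Units.val_mul]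

end CfsgLib.PF.Frozen3
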